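import Cfsg.Agent.OD.Pre
import Cfsg.Agent.H6.TCTop
import Cfsg.Agent.H6.F24T1.C
set_option autoImplicit false
set_option maxRecDepth 100000
set_option Elab.async false
set_option linter.all false
namespace CfH6.F24T1
open CfH6
theorem p0 : C.OkL 256 2048 := C.okL_of 256 14 0 2048 (by decide) (by decide +kernel)
theorem p1 : C.OkL 2048 3840 := C.okL_of 2048 14 0 3840 (by decide) (by decide +kernel)
theorem p2 : C.OkL 3840 5632 := C.okL_of 3840 14 0 5632 (by decide) (by decide +kernel)
theorem p3 : C.OkL 5632 7424 := C.okL_of 5632 14 0 7424 (by decide) (by decide +kernel)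
theorem p4 : C.OkL 7424 9216 := C.okL_of 7424 14 0 9216 (by decide) (by decide +kernel)
theorem p5 : C.OkL 9216 11008 := C.okL_of 9216 14 0 11008 (by decide) (by decide +kernel)
theorem p6 : C.OkL 11008 12800 := C.okL_of 11008 14 0 12800 (by decide) (by decide +kernel)
theorem p7 : C.OkL 12800 14592 := C.okL_of 12800 14 0 14592 (by decide) (by decide +kernel)
theorem p8 : C.OkL 14592 16384 := C.okL_of 14592 14 0 16384 (by decide) (by decide +kernel)
theorem p9 : C.OkL 16384 18304 := C.okL_of 16384 15 0 18304 (by decide) (by decide +kernel)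
theorem p10 : C.OkL 18304 20096 := C.okL_of 18304 14 0 20096 (by decide) (by decide +kernel)
theorem p11 : C.OkL 20096 22016 := C.okL_of 20096 15 0 22016 (by decide) (by decide +kernel)
theorem p12 : C.OkL 22016 23808 := C.okL_of 22016 14 0 23808 (by decide) (by decide +kernel)
theorem p13 : C.OkL 23808 25600 := C.okL_of 23808 14 0 25600 (by decide) (by decide +kernel)
theorem p14 : C.OkL 25600 27520 := C.okL_of 25600 15 0 27520 (by decide) (by decide +kernel)
theorem p15 : C.OkL 27520 29440 := C.okL_of 27520 15 0 29440 (by decide) (by decide +kernel)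
theorem p16 : C.OkL 29440 31232 := C.okL_of 29440 14 0 31232 (by decide) (by decide +kernel)
theorem p17 : C.OkL 31232 33024 := C.okL_of 31232 14 0 33024 (by decide) (by decide +kernel)
theorem p18 : C.OkL 33024 34944 := C.okL_of 33024 15 0 34944 (by decide) (by decide +kernel)
theorem p19 : C.OkL 34944 36864 := C.okL_of 34944 15 0 36864 (by decide) (by decide +kernel)
end CfH6.F24T1
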