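import Cfsg.Agent.OD.Pre
import Cfsg.Agent.H6.TCTop
import Cfsg.Agent.H6.F24T1.C
set_option autoImplicit false
set_option maxRecDepth 100000
set_option Elab.async false
set_option linter.all false
namespace CfH6.F24T1
open CfH6
theorem p20 : C.OkL 36864 38656 := C.okL_of 36864 14 0 38656 (by decide) (by decide +kernel)
theorem p21 : C.OkL 38656 40448 := C.okL_of 38656 14 0 40448 (by decide) (by decide +kernel)
theorem p22 : C.OkL 40448 42368 := C.okL_of 40448 15 0 42368 (by decide) (by decide +kernel)
theorem p23 : C.OkL 42368 44288 := C.okL_of 42368 15 0 44288 (by decide) (by decide +kernel)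
theorem p24 : C.OkL 44288 46208 := C.okL_of 44288 15 0 46208 (by decide) (by decide +kernel)
theorem p25 : C.OkL 46208 48000 := C.okL_of 46208 14 0 48000 (by decide) (by decide +kernel)
theorem p26 : C.OkL 48000 49792 := C.okL_of 48000 14 0 49792 (by decide) (by decide +kernel)
theorem p27 : C.OkL 49792 51584 := C.okL_of 49792 14 0 51584 (by decide) (by decide +kernel)
theorem p28 : C.OkL 51584 53504 := C.okL_of 51584 15 0 53504 (by decide) (by decide +kernel)
theorem p29 : C.OkL 53504 55424 := C.okL_of 53504 15 0 55424 (by decide) (by decide +kernel)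
theorem p30 : C.OkL 55424 57344 := C.okL_of 55424 15 0 57344 (by decide) (by decide +kernel)
theorem p31 : C.OkL 57344 59264 := C.okL_of 57344 15 0 59264 (by decide) (by decide +kernel)
theorem p32 : C.OkL 59264 61056 := C.okL_of 59264 14 0 61056 (by decide) (by decide +kernel)
theorem p33 : C.OkL 61056 62848 := C.okL_of 61056 14 0 62848 (by decide) (by decide +kernel)
theorem p34 : C.OkL 62848 64640 := C.okL_of 62848 14 0 64640 (by decide) (by decide +kernel)
theorem p35 : C.OkL 64640 66560 := C.okL_of 64640 15 0 66560 (by decide) (by decide +kernel)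
theorem p36 : C.OkL 66560 68480 := C.okL_of 66560 15 0 68480 (by decide) (by decide +kernel)
theorem p37 : C.OkL 68480 70400 := C.okL_of 68480 15 0 70400 (by decide) (by decide +kernel)
theorem p38 : C.OkL 70400 72320 := C.okL_of 70400 15 0 72320 (by decide) (by decide +kernel)
theorem p39 : C.OkL 72320 74112 := C.okL_of 72320 14 0 74112 (by decide) (by decide +kernel)
end CfH6.F24T1
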