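import Cfsg.Agent.OD.Pre
import Cfsg.Agent.H6.TCTop
import Cfsg.Agent.H6.F24T1.C
set_option autoImplicit false
set_option maxRecDepth 100000
set_option Elab.async false
set_option linter.all false
namespace CfH6.F24T1
open CfH6
theorem p40 : C.OkL 74112 75904 := C.okL_of 74112 14 0 75904 (by decide) (by decide +kernel)
theorem p41 : C.OkL 75904 77696 := C.okL_of 75904 14 0 77696 (by decide) (by decide +kernel)
theorem p42 : C.OkL 77696 79488 := C.okL_of 77696 14 0 79488 (by decide) (by decide +kernel)
theorem p43 : C.OkL 79488 81280 := C.okL_of 79488 14 0 81280 (by decide) (by decide +kernel)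
theorem p44 : C.OkL 81280 83200 := C.okL_of 81280 15 0 83200 (by decide) (by decide +kernel)
theorem p45 : C.OkL 83200 85120 := C.okL_of 83200 15 0 85120 (by decide) (by decide +kernel)
theorem p46 : C.OkL 85120 87040 := C.okL_of 85120 15 0 87040 (by decide) (by decide +kernel)
theorem p47 : C.OkL 87040 88960 := C.okL_of 87040 15 0 88960 (by decide) (by decide +kernel)
theorem p48 : C.OkL 88960 90752 := C.okL_of 88960 14 0 90752 (by decide) (by decide +kernel)
theorem p49 : C.OkL 90752 92544 := C.okL_of 90752 14 0 92544 (by decide) (by decide +kernel)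
theorem p50 : C.OkL 92544 94336 := C.okL_of 92544 14 0 94336 (by decide) (by decide +kernel)
theorem p51 : C.OkL 94336 96128 := C.okL_of 94336 14 0 96128 (by decide) (by decide +kernel)
theorem p52 : C.OkL 96128 97920 := C.okL_of 96128 14 0 97920 (by decide) (by decide +kernel)
theorem p53 : C.OkL 97920 99840 := C.okL_of 97920 15 0 99840 (by decide) (by decide +kernel)
theorem p54 : C.OkL 99840 101760 := C.okL_of 99840 15 0 101760 (by decide) (by decide +kernel)
theorem p55 : C.OkL 101760 103680 := C.okL_of 101760 15 0 103680 (by decide) (by decide +kernel)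
theorem p56 : C.OkL 103680 105600 := C.okL_of 103680 15 0 105600 (by decide) (by decide +kernel)
theorem p57 : C.OkL 105600 107520 := C.okL_of 105600 15 0 107520 (by decide) (by decide +kernel)
theorem p58 : C.OkL 107520 109312 := C.okL_of 107520 14 0 109312 (by decide) (by decide +kernel)
theorem p59 : C.OkL 109312 111104 := C.okL_of 109312 14 0 111104 (by decide) (by decide +kernel)
end CfH6.F24T1
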