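import Cfsg.Agent.OD.Pre
import Cfsg.Agent.H6.TCTop
import Cfsg.Agent.H6.F24T1.C
set_option autoImplicit false
set_option maxRecDepth 100000
set_option Elab.async false
set_option linter.all false
namespace CfH6.F24T1
open CfH6
theorem p60 : C.OkL 111104 112896 := C.okL_of 111104 14 0 112896 (by decide) (by decide +kernel)
theorem p61 : C.OkL 112896 114816 := C.okL_of 112896 15 0 114816 (by decide) (by decide +kernel)
theorem p62 : C.OkL 114816 116608 := C.okL_of 114816 14 0 116608 (by decide) (by decide +kernel)
theorem p63 : C.OkL 116608 118528 := C.okL_of 116608 15 0 118528 (by decide) (by decide +kernel)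
theorem p64 : C.OkL 118528 120448 := C.okL_of 118528 15 0 120448 (by decide) (by decide +kernel)
theorem p65 : C.OkL 120448 122368 := C.okL_of 120448 15 0 122368 (by decide) (by decide +kernel)
theorem p66 : C.OkL 122368 124288 := C.okL_of 122368 15 0 124288 (by decide) (by decide +kernel)
theorem p67 : C.OkL 124288 126208 := C.okL_of 124288 15 0 126208 (by decide) (by decide +kernel)
theorem p68 : C.OkL 126208 128000 := C.okL_of 126208 14 0 128000 (by decide) (by decide +kernel)
theorem p69 : C.OkL 128000 129792 := C.okL_of 128000 14 0 129792 (by decide) (by decide +kernel)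
theorem p70 : C.OkL 129792 131584 := C.okL_of 129792 14 0 131584 (by decide) (by decide +kernel)
theorem p71 : C.OkL 131584 133376 := C.okL_of 131584 14 0 133376 (by decide) (by decide +kernel)
theorem p72 : C.OkL 133376 135296 := C.okL_of 133376 15 0 135296 (by decide) (by decide +kernel)
theorem p73 : C.OkL 135296 137088 := C.okL_of 135296 14 0 137088 (by decide) (by decide +kernel)
theorem p74 : C.OkL 137088 139008 := C.okL_of 137088 15 0 139008 (by decide) (by decide +kernel)
theorem p75 : C.OkL 139008 140928 := C.okL_of 139008 15 0 140928 (by decide) (by decide +kernel)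
theorem p76 : C.OkL 140928 142848 := C.okL_of 140928 15 0 142848 (by decide) (by decide +kernel)
theorem p77 : C.OkL 142848 144768 := C.okL_of 142848 15 0 144768 (by decide) (by decide +kernel)
theorem p78 : C.OkL 144768 146688 := C.okL_of 144768 15 0 146688 (by decide) (by decide +kernel)
theorem p79 : C.OkL 146688 148608 := C.okL_of 146688 15 0 148608 (by decide) (by decide +kernel)
end CfH6.F24T1
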