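import Cfsg.Agent.OD.Pre
import Cfsg.Agent.H6.TCTop
import Cfsg.Agent.H6.F24T1.C
set_option autoImplicit false
set_option maxRecDepth 100000
set_option Elab.async false
set_option linter.all false
namespace CfH6.F24T1
open CfH6
theorem p80 : C.OkL 148608 150400 := C.okL_of 148608 14 0 150400 (by decide) (by decide +kernel)
theorem p81 : C.OkL 150400 152192 := C.okL_of 150400 14 0 152192 (by decide) (by decide +kernel)
theorem p82 : C.OkL 152192 153984 := C.okL_of 152192 14 0 153984 (by decide) (by decide +kernel)
theorem p83 : C.OkL 153984 155776 := C.okL_of 153984 14 0 155776 (by decide) (by decide +kernel)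
theorem p84 : C.OkL 155776 157568 := C.okL_of 155776 14 0 157568 (by decide) (by decide +kernel)
theorem p85 : C.OkL 157568 159360 := C.okL_of 157568 14 0 159360 (by decide) (by decide +kernel)
theorem p86 : C.OkL 159360 161280 := C.okL_of 159360 15 0 161280 (by decide) (by decide +kernel)
theorem p87 : C.OkL 161280 163200 := C.okL_of 161280 15 0 163200 (by decide) (by decide +kernel)
theorem p88 : C.OkL 163200 165120 := C.okL_of 163200 15 0 165120 (by decide) (by decide +kernel)
theorem p89 : C.OkL 165120 167040 := C.okL_of 165120 15 0 167040 (by decide) (by decide +kernel)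
theorem p90 : C.OkL 167040 168960 := C.okL_of 167040 15 0 168960 (by decide) (by decide +kernel)
theorem p91 : C.OkL 168960 170880 := C.okL_of 168960 15 0 170880 (by decide) (by decide +kernel)
theorem p92 : C.OkL 170880 172672 := C.okL_of 170880 14 0 172672 (by decide) (by decide +kernel)
theorem p93 : C.OkL 172672 174464 := C.okL_of 172672 14 0 174464 (by decide) (by decide +kernel)
theorem p94 : C.OkL 174464 176256 := C.okL_of 174464 14 0 176256 (by decide) (by decide +kernel)
theorem p95 : C.OkL 176256 178048 := C.okL_of 176256 14 0 178048 (by decide) (by decide +kernel)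
theorem p96 : C.OkL 178048 179968 := C.okL_of 178048 15 0 179968 (by decide) (by decide +kernel)
theorem p97 : C.OkL 179968 181760 := C.okL_of 179968 14 0 181760 (by decide) (by decide +kernel)
theorem p98 : C.OkL 181760 183680 := C.okL_of 181760 15 0 183680 (by decide) (by decide +kernel)
theorem p99 : C.OkL 183680 185600 := C.okL_of 183680 15 0 185600 (by decide) (by decide +kernel)
end CfH6.F24T1
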