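import Cfsg.Agent.OD.Pre
import Cfsg.Agent.H6.TCTop
import Cfsg.Agent.H6.F24T1.C
set_option autoImplicit false
set_option maxRecDepth 100000
set_option Elab.async false
set_option linter.all false
namespace CfH6.F24T1
open CfH6
theorem p100 : C.OkL 185600 187520 := C.okL_of 185600 15 0 187520 (by decide) (by decide +kernel)
theorem p101 : C.OkL 187520 189440 := C.okL_of 187520 15 0 189440 (by decide) (by decide +kernel)
theorem p102 : C.OkL 189440 191360 := C.okL_of 189440 15 0 191360 (by decide) (by decide +kernel)
theorem p103 : C.OkL 191360 193280 := C.okL_of 191360 15 0 193280 (by decide) (by decide +kernel)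
theorem p104 : C.OkL 193280 195200 := C.okL_of 193280 15 0 195200 (by decide) (by decide +kernel)
theorem p105 : C.OkL 195200 196992 := C.okL_of 195200 14 0 196992 (by decide) (by decide +kernel)
theorem p106 : C.OkL 196992 198784 := C.okL_of 196992 14 0 198784 (by decide) (by decide +kernel)
theorem p107 : C.OkL 198784 200576 := C.okL_of 198784 14 0 200576 (by decide) (by decide +kernel)
theorem p108 : C.OkL 200576 202368 := C.okL_of 200576 14 0 202368 (by decide) (by decide +kernel)
theorem p109 : C.OkL 202368 204160 := C.okL_of 202368 14 0 204160 (by decide) (by decide +kernel)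
theorem p110 : C.OkL 204160 205952 := C.okL_of 204160 14 0 205952 (by decide) (by decide +kernel)
theorem p111 : C.OkL 205952 207744 := C.okL_of 205952 14 0 207744 (by decide) (by decide +kernel)
theorem p112 : C.OkL 207744 209664 := C.okL_of 207744 15 0 209664 (by decide) (by decide +kernel)
theorem p113 : C.OkL 209664 211584 := C.okL_of 209664 15 0 211584 (by decide) (by decide +kernel)
theorem p114 : C.OkL 211584 213504 := C.okL_of 211584 15 0 213504 (by decide) (by decide +kernel)
theorem p115 : C.OkL 213504 215424 := C.okL_of 213504 15 0 215424 (by decide) (by decide +kernel)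
theorem p116 : C.OkL 215424 217344 := C.okL_of 215424 15 0 217344 (by decide) (by decide +kernel)
theorem p117 : C.OkL 217344 219264 := C.okL_of 217344 15 0 219264 (by decide) (by decide +kernel)
theorem p118 : C.OkL 219264 221184 := C.okL_of 219264 15 0 221184 (by decide) (by decide +kernel)
theorem p119 : C.OkL 221184 222976 := C.okL_of 221184 14 0 222976 (by decide) (by decide +kernel)
end CfH6.F24T1
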