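import Cfsg.Agent.OD.Pre
import Cfsg.Agent.H6.TCTop
import Cfsg.Agent.H6.F24T1.C
set_option autoImplicit false
set_option maxRecDepth 100000
set_option Elab.async false
set_option linter.all false
namespace CfH6.F24T1
open CfH6
theorem p120 : C.OkL 222976 224768 := C.okL_of 222976 14 0 224768 (by decide) (by decide +kernel)
theorem p121 : C.OkL 224768 226560 := C.okL_of 224768 14 0 226560 (by decide) (by decide +kernel)
theorem p122 : C.OkL 226560 228352 := C.okL_of 226560 14 0 228352 (by decide) (by decide +kernel)
theorem p123 : C.OkL 228352 230144 := C.okL_of 228352 14 0 230144 (by decide) (by decide +kernel)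
theorem p124 : C.OkL 230144 231936 := C.okL_of 230144 14 0 231936 (by decide) (by decide +kernel)
theorem p125 : C.OkL 231936 233856 := C.okL_of 231936 15 0 233856 (by decide) (by decide +kernel)
theorem p126 : C.OkL 233856 235648 := C.okL_of 233856 14 0 235648 (by decide) (by decide +kernel)
theorem p127 : C.OkL 235648 237568 := C.okL_of 235648 15 0 237568 (by decide) (by decide +kernel)
theorem p128 : C.OkL 237568 239360 := C.okL_of 237568 14 0 239360 (by decide) (by decide +kernel)
theorem p129 : C.OkL 239360 241280 := C.okL_of 239360 15 0 241280 (by decide) (by decide +kernel)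
theorem p130 : C.OkL 241280 243200 := C.okL_of 241280 15 0 243200 (by decide) (by decide +kernel)
theorem p131 : C.OkL 243200 245120 := C.okL_of 243200 15 0 245120 (by decide) (by decide +kernel)
theorem p132 : C.OkL 245120 246912 := C.okL_of 245120 14 0 246912 (by decide) (by decide +kernel)
theorem p133 : C.OkL 246912 248576 := C.okL_of 246912 13 0 248576 (by decide) (by decide +kernel)
theorem p134 : C.OkL 248576 250240 := C.okL_of 248576 13 0 250240 (by decide) (by decide +kernel)
theorem p135 : C.OkL 250240 252032 := C.okL_of 250240 14 0 252032 (by decide) (by decide +kernel)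
theorem p136 : C.OkL 252032 253824 := C.okL_of 252032 14 0 253824 (by decide) (by decide +kernel)
theorem p137 : C.OkL 253824 255616 := C.okL_of 253824 14 0 255616 (by decide) (by decide +kernel)
theorem p138 : C.OkL 255616 257408 := C.okL_of 255616 14 0 257408 (by decide) (by decide +kernel)
theorem p139 : C.OkL 257408 259200 := C.okL_of 257408 14 0 259200 (by decide) (by decide +kernel)
end CfH6.F24T1
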