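import Cfsg.Agent.OD.Pre
import Cfsg.Agent.H6.TCTop
import Cfsg.Agent.H6.F24T1.C
set_option autoImplicit false
set_option maxRecDepth 100000
set_option Elab.async false
set_option linter.all false
namespace CfH6.F24T1
open CfH6
theorem p140 : C.OkL 259200 260992 := C.okL_of 259200 14 0 260992 (by decide) (by decide +kernel)
theorem p141 : C.OkL 260992 262784 := C.okL_of 260992 14 0 262784 (by decide) (by decide +kernel)
theorem p142 : C.OkL 262784 264576 := C.okL_of 262784 14 0 264576 (by decide) (by decide +kernel)
theorem p143 : C.OkL 264576 266496 := C.okL_of 264576 15 0 266496 (by decide) (by decide +kernel)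
theorem p144 : C.OkL 266496 268416 := C.okL_of 266496 15 0 268416 (by decide) (by decide +kernel)
theorem p145 : C.OkL 268416 270208 := C.okL_of 268416 14 0 270208 (by decide) (by decide +kernel)
theorem p146 : C.OkL 270208 271872 := C.okL_of 270208 13 0 271872 (by decide) (by decide +kernel)
theorem p147 : C.OkL 271872 273536 := C.okL_of 271872 13 0 273536 (by decide) (by decide +kernel)
theorem p148 : C.OkL 273536 275200 := C.okL_of 273536 13 0 275200 (by decide) (by decide +kernel)
theorem p149 : C.OkL 275200 276992 := C.okL_of 275200 14 0 276992 (by decide) (by decide +kernel)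
theorem p150 : C.OkL 276992 278784 := C.okL_of 276992 14 0 278784 (by decide) (by decide +kernel)
theorem p151 : C.OkL 278784 280576 := C.okL_of 278784 14 0 280576 (by decide) (by decide +kernel)
theorem p152 : C.OkL 280576 282368 := C.okL_of 280576 14 0 282368 (by decide) (by decide +kernel)
theorem p153 : C.OkL 282368 284160 := C.okL_of 282368 14 0 284160 (by decide) (by decide +kernel)
theorem p154 : C.OkL 284160 285952 := C.okL_of 284160 14 0 285952 (by decide) (by decide +kernel)
theorem p155 : C.OkL 285952 287616 := C.okL_of 285952 13 0 287616 (by decide) (by decide +kernel)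
theorem p156 : C.OkL 287616 289280 := C.okL_of 287616 13 0 289280 (by decide) (by decide +kernel)
theorem p157 : C.OkL 289280 290944 := C.okL_of 289280 13 0 290944 (by decide) (by decide +kernel)
theorem p158 : C.OkL 290944 292736 := C.okL_of 290944 14 0 292736 (by decide) (by decide +kernel)
theorem p159 : C.OkL 292736 294528 := C.okL_of 292736 14 0 294528 (by decide) (by decide +kernel)
end CfH6.F24T1
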