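import Cfsg.Agent.OD.Pre
import Cfsg.Agent.H6.TCTop
import Cfsg.Agent.H6.F24T1.C
set_option autoImplicit false
set_option maxRecDepth 100000
set_option Elab.async false
set_option linter.all false
namespace CfH6.F24T1
open CfH6
theorem p160 : C.OkL 294528 296320 := C.okL_of 294528 14 0 296320 (by decide) (by decide +kernel)
theorem p161 : C.OkL 296320 297984 := C.okL_of 296320 13 0 297984 (by decide) (by decide +kernel)
theorem p162 : C.OkL 297984 299648 := C.okL_of 297984 13 0 299648 (by decide) (by decide +kernel)
theorem p163 : C.OkL 299648 301312 := C.okL_of 299648 13 0 301312 (by decide) (by decide +kernel)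
theorem p164 : C.OkL 301312 303104 := C.okL_of 301312 14 0 303104 (by decide) (by decide +kernel)
theorem p165 : C.OkL 303104 304640 := C.okL_of 303104 12 0 304640 (by decide) (by decide +kernel)
theorem p166 : C.OkL 304640 306304 := C.okL_of 304640 13 0 306304 (by decide) (by decide +kernel)
theorem p167 : C.OkL 306304 307192 := C.okL_of 306304 6 120 307192 (by decide) (by decide +kernel)
theorem p168 : C.OkR 307192 307644 := C.okR_of 307192 3 68 307644 (by decide) (by decide +kernel)
end CfH6.F24T1
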